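import Cfsg.Agent.Lib.DegTwoP.PGrp
import Cfsg.Agent.Lib.Char.Clifford2

/-!
# Clifford theory for faithful irreducible characters of degree below `2p`
-/

set_option autoImplicit false

namespace Cfsg.Agent.Lib.DegTwoP

open Cfsg Cfsg.Agent.Lib.Char Cfsg.Agent.Lib.Degree
open scoped commutatorElement

section

variable {G : Type*} [Group G] [Fintype G]

/-- Normal `p`-subgroups are abelian for a faithful irreducible character of degree `n < 2p`,
`n ≠ p`. -/
theorem abelian_of_normal {χ : G → ℂ} (hχ : IsIrrCharacter G χ)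
    (hfaith : ∀ g, χ g = χ 1 → g = 1) {n p : ℕ} (hp : p.Prime) (hn : charDegree χ = n)
    (hn2 : n < 2 * p) (hnp : n ≠ p) (N : Subgroup G) [Fintype N] (hN : N.Normal)
    (hNp : IsPGroup p N) : ∀ a b : N, a * b = b * a := by
  classical
  by_contra hcon
  push Not at hcon
  obtain ⟨a, b, hab⟩ := hcon
  have hχc := IsIrrCharacter.isCharacter hχ
  have hres := IsCharacter.restrict N hχc
  set c : N := ⁅a, b⁆ with hc
  have hcD : c ∈ commutator N :=
    Subgroup.commutator_mem_commutator (Subgroup.mem_top _) (Subgroup.mem_top _)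
  have hc1 : c ≠ 1 := by
    intro h
    rw [hc, commutatorElement_eq_one_iff_mul_comm] at h
    exact hab h
  have hne : (fun x : N => χ x) c ≠ (fun x : N => χ x) 1 := by
    intro h
    apply hc1
    exact Subtype.ext (hfaith _ h)
  obtain ⟨ψ, hψ0, hψ1⟩ := exists_nonlinear_constituent (IsCharacter.isClassFunction hres) hcD hne
  obtain ⟨e, he⟩ := classInner_isCharacter_nat hres (IsIrrCharacter.isCharacter ψ.2)
  have he0 : e ≠ 0 := by
    rintro rfl
    apply hψ0
    simpa using he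
  have hdeg := clifford_degree hN hχ ψ.2 he he0
  obtain ⟨s, hs⟩ := irr_degree_pow hp hNp ψ.2
  have hψdeg : (ψ : N → ℂ) 1 = (charDegree (ψ : N → ℂ) : ℂ) :=
    map_one_eq_charDegree (IsIrrCharacter.isCharacter ψ.2)
  have hs1 : s ≠ 0 := by
    rintro rfl
    apply hψ1
    rw [hψdeg, hs]
    simp
  have ht : (inertia hN (ψ : N → ℂ)).index ≠ 0 := Subgroup.index_ne_zero_of_finite
  rw [hn, hs] at hdeg
  set t := (inertia hN (ψ : N → ℂ)).index with htdef
  have hp2 := hp.two_le
  have hps : p ≤ p ^ s := by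
    calc p = p ^ 1 := (pow_one p).symm
      _ ≤ p ^ s := Nat.pow_le_pow_right hp.pos (Nat.one_le_iff_ne_zero.mpr hs1)
  have het : e * t ≠ 0 := mul_ne_zero he0 ht
  have het1 : e * t = 1 := by
    by_contra h
    have h2 : 2 ≤ e * t := by omega
    have : 2 * p ≤ e * t * p ^ s := Nat.mul_le_mul h2 hps
    omega
  rw [het1, one_mul] at hdeg
  have hs2 : s = 1 := by
    by_contra h
    have h3 : 2 ≤ s := by omega
    have h4 : p ^ 2 ≤ p ^ s := Nat.pow_le_pow_right hp.pos h3
    nlinarith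
  subst hs2
  rw [pow_one] at hdeg
  exact hnp hdeg

/-- The multiplicity is one. -/
theorem mult_one {χ : G → ℂ} (hχ : IsIrrCharacter G χ) {n p : ℕ} (hp : p.Prime)
    (hn : charDegree χ = n) (hpn : p < n) (hn2 : n < 2 * p) (N : Subgroup G) [Fintype N]
    (hN : N.Normal) (hab : ∀ a b : N, a * b = b * a) (z : N) (hzp : z ^ p = 1) {ω : ℂ}
    (hω : ω ^ p = 1) (hω1 : ω ≠ 1)
    (hz : ∀ k : ℕ, χ ((z : G) ^ k) = (p : ℂ) * ω ^ k + ((n - p : ℕ) : ℂ))
    (θ : IrrCharacter N) {e : ℕ} (he : classInner (fun x : N => χ x) (θ : N → ℂ) = e)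
    (he0 : e ≠ 0) : e = 1 := by
  classical
  have hrest := clifford_restrict hN hχ θ.2 (by rw [he]; exact_mod_cast he0)
  have hlin : ∀ φ : IrrCharacter N, (φ : N → ℂ) 1 = 1 := fun φ => charDegree_eq_one_of_comm hab φ.2
  have hφpow : ∀ (φ : IrrCharacter N) (k : ℕ), (φ : N → ℂ) (z ^ k) = (φ : N → ℂ) z ^ k := by
    intro φ k
    induction k with
    | zero => simp [hlin]
    | succ k ih => rw [pow_succ, irr_linear_mul φ (hlin φ), ih, pow_succ]
  have hφp : ∀ φ : IrrCharacter N, (φ : N → ℂ) z ^ p = 1 := by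
    intro φ
    rw [← hφpow, hzp, hlin]
  have hval : ∀ k : ℕ, (p : ℂ) * ω ^ k + ((n - p : ℕ) : ℂ) =
      (e : ℂ) * ∑ φ ∈ cliffordOrbit hN (θ : N → ℂ), (φ : N → ℂ) z ^ k := by
    intro k
    have h1 := congrFun hrest (z ^ k)
    simp only [Pi.smul_apply, Finset.sum_apply, smul_eq_mul, he, hφpow] at h1
    rw [← h1, ← hz k]
    rfl
  have hsum := Finset.sum_congr (rfl : Finset.range p = Finset.range p) (fun k _ => hval k)
  have hL : ∑ k ∈ Finset.range p, ((p : ℂ) * ω ^ k + ((n - p : ℕ) : ℂ)) =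
      (p : ℂ) * ((n - p : ℕ) : ℂ) := by
    rw [Finset.sum_add_distrib, ← Finset.mul_sum, geom_root_eq_zero hω hω1, mul_zero, zero_add,
      Finset.sum_const, Finset.card_range, nsmul_eq_mul]
  have hR : ∑ k ∈ Finset.range p, ((e : ℂ) * ∑ φ ∈ cliffordOrbit hN (θ : N → ℂ), (φ : N → ℂ) z ^ k)
      = (e : ℂ) * (((cliffordOrbit hN (θ : N → ℂ)).filter fun φ : IrrCharacter N => (φ : N → ℂ) z = 1).card * p) := by
    rw [← Finset.mul_sum, Finset.sum_comm]
    congr 1
    have h2 : ∀ φ ∈ cliffordOrbit hN (θ : N → ℂ), ∑ k ∈ Finset.range p, (φ : N → ℂ) z ^ k =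
        if (φ : N → ℂ) z = 1 then (p : ℂ) else 0 := by
      intro φ _
      split_ifs with h
      · simp [h]
      · exact geom_root_eq_zero (hφp φ) h
    rw [Finset.sum_congr rfl h2, Finset.sum_ite, Finset.sum_const, Finset.sum_const_zero, add_zero,
      nsmul_eq_mul]
  rw [hL, hR] at hsum
  set c := ((cliffordOrbit hN (θ : N → ℂ)).filter fun φ : IrrCharacter N => (φ : N → ℂ) z = 1).card with hc
  have hpne : (p : ℂ) ≠ 0 := by exact_mod_cast hp.ne_zero
  have hmain : ((n - p : ℕ) : ℂ) = (e : ℂ) * c := by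
    have : (p : ℂ) * ((n - p : ℕ) : ℂ) = (p : ℂ) * ((e : ℂ) * c) := by
      rw [hsum]
      ring
    exact mul_left_cancel₀ hpne this
  have hmain' : n - p = e * c := by exact_mod_cast hmain
  have hdeg := clifford_degree hN hχ θ.2 he he0
  have hθ1 : charDegree (θ : N → ℂ) = 1 := charDegree_natCast (n := 1) (by simpa using hlin θ)
  rw [hθ1, mul_one, hn] at hdeg
  have hd1 : e ∣ n - p := ⟨c, hmain'⟩
  have hd2 : e ∣ n := ⟨_, hdeg⟩
  have hd3 : e ∣ p := by
    have : n = (n - p) + p := by omega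
    rw [this] at hd2
    exact (Nat.dvd_add_right hd1).mp hd2
  rcases (Nat.dvd_prime hp).mp hd3 with h | h
  · exact h
  · exfalso
    subst h
    have := Nat.le_of_dvd (by omega) hd1
    omega

/-- The kernel of the action on the constituents of the restriction. -/
theorem exists_kernel {χ : G → ℂ} (hχ : IsIrrCharacter G χ) (hfaith : ∀ g, χ g = χ 1 → g = 1)
    {n : ℕ} (hn : charDegree χ = n) (N : Subgroup G) [Fintype N] (hN : N.Normal)
    (hab : ∀ a b : N, a * b = b * a) (θ : IrrCharacter N)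
    (he : classInner (fun x : N => χ x) (θ : N → ℂ) = 1) :
    ∃ K : Subgroup G, K.Normal ∧ N ≤ K ∧ (∀ a ∈ K, ∀ b ∈ K, a * b = b * a) ∧
      K.index ∣ n.factorial := by
  classical
  have hlin : ∀ φ : IrrCharacter N, (φ : N → ℂ) 1 = 1 := fun φ => charDegree_eq_one_of_comm hab φ.2
  have hχc := IsIrrCharacter.isCharacter hχ
  letI act : MulAction G (IrrCharacter N) :=
    { smul := fun g φ => ⟨conjFn hN g⁻¹ φ, conjFn_isIrr hN _ φ.2⟩
      one_smul := fun φ => by
        apply Subtype.ext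
        show conjFn hN 1⁻¹ φ.1 = φ.1
        rw [inv_one, conjFn_one]
      mul_smul := fun a b φ => by
        apply Subtype.ext
        show conjFn hN (a * b)⁻¹ φ.1 = conjFn hN a⁻¹ (conjFn hN b⁻¹ φ.1)
        rw [mul_inv_rev, conjFn_mul] }
  have hsmul : ∀ (g : G) (φ : IrrCharacter N), ((g • φ : IrrCharacter N) : N → ℂ) =
      conjFn hN g⁻¹ φ := fun _ _ => rfl
  have hO : MulAction.orbit G θ = ↑(cliffordOrbit hN (θ : N → ℂ)) := by
    ext φ
    rw [Finset.mem_coe, mem_cliffordOrbit, MulAction.mem_orbit_iff]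
    constructor
    · rintro ⟨g, rfl⟩
      exact ⟨g⁻¹, rfl⟩
    · rintro ⟨g, hg⟩
      refine ⟨g⁻¹, ?_⟩
      apply Subtype.ext
      rw [hsmul, inv_inv, hg]
  let f : G →* Equiv.Perm (MulAction.orbit G θ) := MulAction.toPermHom G (MulAction.orbit G θ)
  have hcardO : Nat.card (MulAction.orbit G θ) = n := by
    rw [hO, Nat.card_coe_set_eq, Set.ncard_coe_finset, card_cliffordOrbit hN θ.2]
    have hdeg := clifford_degree hN hχ θ.2 (e := 1) (by rw [he]; simp) one_ne_zero
    have hθ1 : charDegree (θ : N → ℂ) = 1 := charDegree_natCast (n := 1) (by simpa using hlin θ)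
    rw [hθ1, mul_one, one_mul, hn] at hdeg
    exact hdeg.symm
  have hKin : ∀ g ∈ f.ker, ∀ φ ∈ MulAction.orbit G θ, g ∈ inertia hN (φ : N → ℂ) := by
    intro g hg φ hφ
    have h1 : f g = 1 := hg
    have h2 := congrArg (fun σ : Equiv.Perm (MulAction.orbit G θ) => σ ⟨φ, hφ⟩) h1
    have h3 : g • φ = φ := congrArg Subtype.val h2
    have h4 := congrArg Subtype.val h3
    have h5 : conjFn hN g⁻¹ (φ : N → ℂ) = φ := h4
    have h6 : g⁻¹ ∈ inertia hN (φ : N → ℂ) := h5
    simpa using inv_mem h6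
  have hNK : N ≤ f.ker := by
    intro x hx
    rw [MonoidHom.mem_ker]
    ext φ
    have h1 : x⁻¹ ∈ inertia hN (φ.1 : N → ℂ) :=
      le_inertia hN (IsCharacter.isClassFunction (IsIrrCharacter.isCharacter φ.1.2)) (inv_mem hx)
    have h2 : conjFn hN x⁻¹ (φ.1 : N → ℂ) = φ.1 := h1
    exact congrFun h2 _
  refine ⟨f.ker, inferInstance, hNK, ?_, ?_⟩
  · intro a ha b hb
    by_contra hne
    letI : Fintype f.ker := Fintype.ofFinite _
    set K := f.ker with hK
    have hresK := IsCharacter.restrict K hχc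
    let a' : K := ⟨a, ha⟩
    let b' : K := ⟨b, hb⟩
    set c : K := ⁅a', b'⁆ with hc
    have hcD : c ∈ commutator K :=
      Subgroup.commutator_mem_commutator (Subgroup.mem_top _) (Subgroup.mem_top _)
    have hc1 : c ≠ 1 := by
      intro h
      rw [hc, commutatorElement_eq_one_iff_mul_comm] at h
      exact hne (congrArg Subtype.val h)
    have hne' : (fun x : K => χ x) c ≠ (fun x : K => χ x) 1 := by
      intro h
      apply hc1
      exact Subtype.ext (hfaith _ h)
    obtain ⟨γ, hγ0, hγ1⟩ := exists_nonlinear_constituent (IsCharacter.isClassFunction hresK) hcD hne'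
    let ι : N →* K := Subgroup.inclusion hNK
    have hγN : IsCharacter N (fun x : N => (γ : K → ℂ) ⟨x, hNK x.2⟩) :=
      IsCharacter.comp ι (IsIrrCharacter.isCharacter γ.2)
    have hγNne : (fun x : N => (γ : K → ℂ) ⟨x, hNK x.2⟩) ≠ 0 := by
      intro h
      have h1 := congrFun h 1
      exact map_one_ne_zero_of_irr γ.2 h1
    obtain ⟨φ, hφ, hφ0⟩ := exists_constituent hγN hγNne
    have hR := isCharacter_sub_of_constituent hresK γ.2 hγ0
    set R : K → ℂ := (fun x : K => χ x) - (γ : K → ℂ) with hRdef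
    have hRN : IsCharacter N (fun x : N => R ⟨x, hNK x.2⟩) := IsCharacter.comp ι hR
    have hsum : (fun x : N => χ x) = (fun x : N => (γ : K → ℂ) ⟨x, hNK x.2⟩) +
        (fun x : N => R ⟨x, hNK x.2⟩) := by
      funext x
      simp [hRdef]
    obtain ⟨f₁, hf₁⟩ := classInner_isCharacter_nat hγN (IsIrrCharacter.isCharacter hφ)
    obtain ⟨r, hr⟩ := classInner_isCharacter_nat hRN (IsIrrCharacter.isCharacter hφ)
    have hχφ : classInner (fun x : N => χ x) φ = ((f₁ + r : ℕ) : ℂ) := by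
      rw [hsum, classInner_add_left, hf₁, hr]
      push_cast
      ring
    have hf₁0 : f₁ ≠ 0 := by
      rintro rfl
      apply hφ0
      simpa using hf₁
    have hχφ0 : classInner (fun x : N => χ x) φ ≠ 0 := by
      rw [hχφ]
      have : f₁ + r ≠ 0 := by omega
      exact_mod_cast this
    obtain ⟨g, hg⟩ := clifford_constituent_conj hN hχ θ.2 hφ (by rw [he]; exact one_ne_zero) hχφ0
    have h1 : classInner (fun x : N => χ x) φ = 1 := by
      rw [hg, classInner_restrict_conjFn hN g (IsCharacter.isClassFunction hχc), he]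
    have hf₁1 : f₁ = 1 := by
      have : ((f₁ + r : ℕ) : ℂ) = 1 := by rw [← hχφ, h1]
      have h2 : f₁ + r = 1 := by exact_mod_cast this
      omega
    have hφO : (⟨φ, hφ⟩ : IrrCharacter N) ∈ MulAction.orbit G θ := by
      refine ⟨g⁻¹, ?_⟩
      apply Subtype.ext
      show conjFn hN g⁻¹⁻¹ (θ : N → ℂ) = φ
      rw [inv_inv, hg]
    have hnorm : ∀ t ∈ K, ∀ x ∈ N, t * x * t⁻¹ ∈ N := fun t _ x hx => hN.conj_mem x hx t
    have hinv : ∀ (t : K) (x : N), φ ⟨(t : G) * x * (t : G)⁻¹, hnorm t t.2 x x.2⟩ = φ x := by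
      intro t x
      have h2 := hKin t t.2 _ hφO
      exact (mem_inertia_iff hN φ t).mp h2 x
    have hres := restrict_eq_smul_of_invariant hNK γ.2 hφ hnorm hinv hφ0
    have h3 := congrFun hres 1
    simp only [Pi.smul_apply, smul_eq_mul] at h3
    rw [hf₁, hf₁1] at h3
    have hφ11 : φ 1 = 1 := hlin ⟨φ, hφ⟩
    rw [hφ11] at h3
    apply hγ1
    have h4 : (⟨((1 : N) : G), hNK (1 : N).2⟩ : K) = 1 := rfl
    rw [h4] at h3
    rw [h3]
    simp
  · rw [Subgroup.index_ker]
    have h1 := Subgroup.card_subgroup_dvd_card f.range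
    rw [Nat.card_perm, hcardO] at h1
    exact h1

end

end Cfsg.Agent.Lib.DegTwoP
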