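import Cfsg.Agent.Lib.DegTwoP.Clif

/-!
# Faithful irreducible characters of degree below `2p`: the index of `O_p(G)`
-/

set_option autoImplicit false

namespace Cfsg.Agent.Lib.DegTwoP

open Cfsg Cfsg.Agent.Lib.Char Cfsg.Agent.Lib.Degree Cfsg.Agent.Lib.Core

section

variable {G : Type*} [Group G] [Finite G]

/-- An abelian normal subgroup containing `O_p(G)` has `p`-free index over it. -/
theorem not_dvd_relIndex {p : ℕ} [hp : Fact p.Prime] {K : Subgroup G} (hKn : K.Normal)
    (hKab : ∀ a ∈ K, ∀ b ∈ K, a * b = b * a) (hNK : pCore p G ≤ K) :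
    ¬ p ∣ (pCore p G).relIndex K := by
  intro hdvd
  let S : Subgroup G :=
    { carrier := {g | g ∈ K ∧ ∃ j : ℕ, g ^ p ^ j = 1}
      mul_mem' := by
        rintro a b ⟨ha, i, hi⟩ ⟨hb, j, hj⟩
        refine ⟨K.mul_mem ha hb, i + j, ?_⟩
        have hc : Commute a b := hKab a ha b hb
        rw [hc.mul_pow, pow_add, pow_mul, hi, one_pow, one_mul, mul_comm (p ^ i), pow_mul, hj,
          one_pow]
      one_mem' := ⟨K.one_mem, 0, by simp⟩
      inv_mem' := by
        rintro a ⟨ha, i, hi⟩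
        exact ⟨K.inv_mem ha, i, by rw [inv_pow, hi, inv_one]⟩ }
  have hSn : S.Normal := by
    refine ⟨?_⟩
    rintro a ⟨ha, i, hi⟩ g
    refine ⟨hKn.conj_mem a ha g, i, ?_⟩
    rw [conj_pow, hi]
    simp
  have hSp : IsPGroup p S := by
    rintro ⟨a, ha, i, hi⟩
    exact ⟨i, Subtype.ext hi⟩
  have hSN : S ≤ pCore p G := le_pCore hSn hSp
  haveI hN' : ((pCore p G).subgroupOf K).Normal := (pCore_normal p G).subgroupOf K
  have hcard : Nat.card (K ⧸ (pCore p G).subgroupOf K) = (pCore p G).relIndex K := rfl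
  rw [← hcard] at hdvd
  obtain ⟨x, hx⟩ := exists_prime_orderOf_dvd_card' p hdvd
  obtain ⟨y, rfl⟩ := QuotientGroup.mk_surjective x
  have h1 : ((y : K ⧸ (pCore p G).subgroupOf K)) ^ p = 1 := by
    have := pow_orderOf_eq_one (y : K ⧸ (pCore p G).subgroupOf K)
    rwa [hx] at this
  have h2 : y ^ p ∈ (pCore p G).subgroupOf K := by
    rw [← QuotientGroup.eq_one_iff]
    exact_mod_cast h1
  have h3 : ((y : G)) ^ p ∈ pCore p G := by
    have := Subgroup.mem_subgroupOf.mp h2
    simpa using this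
  obtain ⟨j, hj⟩ := (pCore_isPGroup p G) ⟨_, h3⟩
  have hj' : (y : G) ^ p ^ (j + 1) = 1 := by
    have := congrArg Subtype.val hj
    simp only [Subgroup.coe_pow, Subgroup.coe_one] at this
    rw [pow_succ', pow_mul]
    exact this
  have hyS : (y : G) ∈ S := ⟨y.2, j + 1, hj'⟩
  have hyN : y ∈ (pCore p G).subgroupOf K := Subgroup.mem_subgroupOf.mpr (hSN hyS)
  have h4 : (y : K ⧸ (pCore p G).subgroupOf K) = 1 := (QuotientGroup.eq_one_iff y).mpr hyN
  rw [h4, orderOf_one] at hx
  exact hp.out.one_lt.ne hx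

/-- A square of a prime does not divide the factorial of a number below twice the prime. -/
theorem sq_not_dvd_factorial {p n : ℕ} (hp : p.Prime) (h7 : 3 ≤ p) (hn : n < 2 * p) :
    ¬ p ^ 2 ∣ n.factorial := by
  haveI : Fact p.Prime := ⟨hp⟩
  intro h
  have hne : n.factorial ≠ 0 := Nat.factorial_ne_zero n
  have hv : 2 ≤ padicValNat p n.factorial := (padicValNat_dvd_iff_le hne).mp h
  have hlog : Nat.log p n < 2 := by
    apply Nat.log_lt_of_lt_pow'
    · norm_num
    · nlinarith
  rw [padicValNat_factorial hlog] at hv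
  simp only [Nat.Ico_succ_singleton, Finset.sum_singleton, pow_one] at hv
  have : n / p < 2 := by
    rw [Nat.div_lt_iff_lt_mul hp.pos]
    linarith
  omega

/-- The main theorem: the square of `p` does not divide the index of `O_p(G)`. -/
theorem main_not_dvd {χ : G → ℂ} (hχ : IsIrrCharacter G χ) (hfaith : ∀ g, χ g = χ 1 → g = 1)
    {n p : ℕ} (hp : p.Prime) (h7 : 7 ≤ p) (hn : charDegree χ = n) (hn2 : n < 2 * p) (hnp : n ≠ p)
    (P : Subgroup G) (hP : IsPGroup p P) (hna : ∃ x y : P, x * y ≠ y * x) :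
    ¬ p ^ 2 ∣ (pCore p G).index := by
  classical
  haveI hpf : Fact p.Prime := ⟨hp⟩
  letI : Fintype G := Fintype.ofFinite G
  letI : Fintype P := Fintype.ofFinite P
  have hχc := IsIrrCharacter.isCharacter hχ
  have hres := IsCharacter.restrict P hχc
  have hdegP : charDegree (fun x : P => χ x) = n := by
    rw [← hn]
    rfl
  obtain ⟨hpn, z, -, hzp, hz⟩ := pgroup_structure hp hP hres
    (fun g hg => Subtype.ext (hfaith _ hg)) hdegP hn2 hna
  have hpn' : p < n := lt_of_le_of_ne hpn (Ne.symm hnp)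
  have hzG : ∀ k : ℕ, χ ((z : G) ^ k) = (p : ℂ) * rootω p ^ k + ((n - p : ℕ) : ℂ) := by
    intro k
    have := hz k
    simpa using this
  have hzpG : (z : G) ^ p = 1 := by
    have := congrArg Subtype.val hzp
    simpa using this
  -- the element lies in `O_p(G)`
  have hzN : (z : G) ∈ pCore p G := by
    obtain ⟨m, ρ, hρ, rfl⟩ := hχ
    have hfaith' : ∀ g, (∀ v, ρ g v = v) → g = 1 := by
      intro g hg
      apply hfaith
      have : ρ g = 1 := LinearMap.ext hg
      simp [Representation.character, this]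
    have hF := mem_fitting_of_two_eigen m ρ hfaith' (norm_rootω_sub_one_lt h7)
      (eigen_of_char ρ hp.pos hzpG (rootω_pow p hp.ne_zero) hzG)
    exact Cfsg.Agent.Lib.PGroup.HH.mem_pCore_of_mem_fitting (j := 1) hF (by simpa using hzpG)
  set N := pCore p G with hNdef
  have hNn : N.Normal := pCore_normal p G
  have hNp : IsPGroup p N := pCore_isPGroup p G
  letI : Fintype N := Fintype.ofFinite N
  have hab := abelian_of_normal hχ hfaith hp hn hn2 hnp N hNn hNp
  -- a constituent
  have hresN := IsCharacter.restrict N hχc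
  have hne0 : (fun x : N => χ x) ≠ 0 := by
    intro h
    exact map_one_ne_zero_of_irr hχ (congrFun h 1)
  obtain ⟨θ, hθ, hθ0⟩ := exists_constituent hresN hne0
  obtain ⟨e, he⟩ := classInner_isCharacter_nat hresN (IsIrrCharacter.isCharacter hθ)
  have he0 : e ≠ 0 := by
    rintro rfl
    apply hθ0
    simpa using he
  have hz' : (⟨z, hzN⟩ : N) ^ p = 1 := Subtype.ext hzpG
  have he1 : e = 1 := mult_one hχ hp hn hpn' hn2 N hNn hab ⟨z, hzN⟩ hz'
    (rootω_pow p hp.ne_zero) ((rootω_primitive p hp.ne_zero).ne_one hp.one_lt) hzG ⟨θ, hθ⟩ he he0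
  subst he1
  obtain ⟨K, hKn, hNK, hKab, hKidx⟩ := exists_kernel hχ hfaith hn N hNn hab ⟨θ, hθ⟩ (by simpa using he)
  intro hdvd
  have hrel := not_dvd_relIndex hKn hKab hNK
  have hmul := Subgroup.relIndex_mul_index hNK
  rw [← hmul] at hdvd
  have hcop : Nat.Coprime (p ^ 2) (N.relIndex K) :=
    Nat.Coprime.pow_left 2 ((Nat.Prime.coprime_iff_not_dvd hp).mpr hrel)
  have h2 : p ^ 2 ∣ K.index := hcop.dvd_of_dvd_mul_left hdvd
  exact sq_not_dvd_factorial hp (by omega) hn2 (h2.trans hKidx)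

/-- The theorem on the Sylow subgroups of `G / O_p(G)`. -/
theorem main_sylow {χ : G → ℂ} (hχ : IsIrrCharacter G χ) (hfaith : ∀ g, χ g = χ 1 → g = 1)
    {n p : ℕ} (hp : p.Prime) (h7 : 7 ≤ p) (hn : charDegree χ = n) (hn2 : n < 2 * p) (hnp : n ≠ p)
    (Q : Sylow p (G ⧸ pCore p G)) (x : G ⧸ pCore p G) (hx : x ∈ (Q : Subgroup (G ⧸ pCore p G)))
    (y : G ⧸ pCore p G) (hy : y ∈ (Q : Subgroup (G ⧸ pCore p G))) : x * y = y * x := by
  classical
  haveI hpf : Fact p.Prime := ⟨hp⟩
  haveI : (pCore p G).Normal := pCore_normal p G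
  by_cases hall : ∃ P : Sylow p G, ∃ a b : (P : Subgroup G), a * b ≠ b * a
  · obtain ⟨P, hna⟩ := hall
    have hnd := main_not_dvd hχ hfaith hp h7 hn hn2 hnp P P.isPGroup' hna
    -- the Sylow subgroup has order at most `p`
    obtain ⟨k, hk⟩ := IsPGroup.iff_card.mp Q.isPGroup'
    have hdvd : Nat.card Q ∣ (pCore p G).index := Subgroup.card_subgroup_dvd_card _
    rw [hk] at hdvd
    have hk2 : k < 2 := by
      by_contra h
      exact hnd ((pow_dvd_pow p (by omega)).trans hdvd)
    have hcomm : ∀ a b : (Q : Subgroup (G ⧸ pCore p G)), a * b = b * a := by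
      interval_cases k
      · intro a b
        haveI : Subsingleton Q := (Nat.card_eq_one_iff_unique.mp (by simpa using hk)).1
        exact Subsingleton.elim _ _
      · have hc : IsCyclic Q := isCyclic_of_prime_card (p := p) (by simpa using hk)
        intro a b
        exact (hc.isMulCommutative.is_comm.comm) a b
    have := hcomm ⟨x, hx⟩ ⟨y, hy⟩
    exact congrArg Subtype.val this
  · push Not at hall
    -- lift `Q` to a Sylow subgroup of `G`
    have hsurj : Function.Surjective (QuotientGroup.mk' (pCore p G)) := QuotientGroup.mk'_surjective _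
    obtain ⟨P, rfl⟩ := Sylow.mapSurjective_surjective hsurj p Q
    obtain ⟨a, ha, rfl⟩ := hx
    obtain ⟨b, hb, rfl⟩ := hy
    have h1 := hall P ⟨a, ha⟩ ⟨b, hb⟩
    have h2 : a * b = b * a := congrArg Subtype.val h1
    rw [← map_mul, ← map_mul, h2]

end

end Cfsg.Agent.Lib.DegTwoP
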