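import Cfsg.Agent.Lib.Blichfeldt.Unitary
import Cfsg.Agent.Lib.PGroup.Engel
import Cfsg.Agent.Lib.PGroup.HHSG1
import Cfsg.Agent.Lib.Char.Basic

/-!
# Elements with two close eigenvalues lie in the Fitting subgroup
-/

set_option autoImplicit false

namespace Cfsg.Agent.Lib.DegTwoP

open Cfsg.Agent.Lib.Blichfeldt Cfsg.Agent.Lib.PGroup

/-- An element near a scalar with constant below `1/2` is left Engel. -/
theorem isLeftEngel_of_near {G : Type*} [Group G] [Finite G] {V : Type*} [NormedAddCommGroup V]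
    [NormedSpace ℂ V] {ρ : G →* Module.End ℂ V} (hiso : ∀ g v, ‖ρ g v‖ = ‖v‖)
    (hfaith : ∀ g, (∀ v, ρ g v = v) → g = 1) {z : G} {a : ℂ} {r : ℝ} (hr0 : 0 ≤ r) (hr : r < 1 / 2)
    (hz : Near ρ z a r) : IsLeftEngel z := by
  classical
  obtain ⟨δ, hδ, hδ'⟩ : ∃ δ : ℝ, 0 < δ ∧ ∀ x : G, Near ρ x 1 δ → ∀ v, ρ x v = v := by
    have hex : ∀ x : G, ∃ δ : ℝ, 0 < δ ∧ (Near ρ x 1 δ → ∀ v, ρ x v = v) := by
      intro x
      by_cases hx : ∀ v, ρ x v = v
      · exact ⟨1, one_pos, fun _ => hx⟩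
      · push Not at hx
        obtain ⟨v, hv⟩ := hx
        have hv' : v ≠ 0 := by
          rintro rfl
          exact hv (map_zero _)
        have hp : 0 < ‖v‖ := norm_pos_iff.mpr hv'
        have hd : 0 < ‖ρ x v - v‖ := norm_pos_iff.mpr (sub_ne_zero.mpr hv)
        refine ⟨‖ρ x v - v‖ / (2 * ‖v‖), by positivity, fun hn => ?_⟩
        have h1 := hn v
        rw [one_smul] at h1
        have h2 : ‖ρ x v - v‖ / (2 * ‖v‖) * ‖v‖ = ‖ρ x v - v‖ / 2 := by
          field_simp
        rw [h2] at h1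
        linarith
    choose d hd hd' using hex
    haveI : Fintype G := Fintype.ofFinite G
    obtain ⟨x0, -, hx0⟩ := Finset.exists_min_image (Finset.univ : Finset G) d ⟨1, Finset.mem_univ _⟩
    refine ⟨d x0, hd x0, fun x hx => hd' x ?_⟩
    intro v
    refine (hx v).trans ?_
    exact mul_le_mul_of_nonneg_right (hx0 x (Finset.mem_univ _)) (norm_nonneg _)
  set t : ℝ := 2 * r with ht
  have ht0 : 0 ≤ t := by positivity
  have ht1 : t < 1 := by rw [ht]; linarith
  intro x
  have hx0 : Near ρ x 0 1 := by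
    intro v
    rw [zero_smul, sub_zero, hiso, one_mul]
  have hk : ∀ k : ℕ, ∃ a : ℂ, Near ρ (engelWord z k x) a (t ^ k) := by
    intro k
    induction k with
    | zero => exact ⟨0, by simpa [engelWord_zero] using hx0⟩
    | succ k ih =>
      obtain ⟨b, hb⟩ := ih
      refine ⟨1, ?_⟩
      rw [engelWord_succ]
      have := near_comm hiso hb hz (by positivity) hr0
      have e : 2 * t ^ k * r = t ^ (k + 1) := by rw [ht, pow_succ]; ring
      rwa [e] at this
  obtain ⟨K, hK⟩ : ∃ K : ℕ, t ^ (K + 1) < δ := by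
    have hlim := tendsto_pow_atTop_nhds_zero_of_lt_one ht0 ht1
    obtain ⟨K, hK⟩ := (hlim.eventually (gt_mem_nhds hδ)).exists
    refine ⟨K, lt_of_le_of_lt ?_ hK⟩
    exact pow_le_pow_of_le_one ht0 ht1.le (Nat.le_succ K)
  refine ⟨K + 1 + 1, ?_⟩
  apply hfaith
  apply hδ'
  obtain ⟨b, hb⟩ := hk (K + 1)
  rw [engelWord_succ]
  have := near_comm hiso hb hz (by positivity) hr0
  intro v
  refine (this v).trans ?_
  refine mul_le_mul_of_nonneg_right ?_ (norm_nonneg _)
  have e : 2 * t ^ (K + 1) * r = t ^ (K + 1) * t := by rw [ht]; ring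
  rw [e]
  have h1 : t ^ (K + 1) * t ≤ t ^ (K + 1) * 1 :=
    mul_le_mul_of_nonneg_left ht1.le (by positivity)
  linarith

/-- The weights of a cyclic group generated by an element with eigenvalues `1, ω`. -/
theorem near_of_two_eigen {G : Type*} [Group G] [Finite G] {V : Type*} [NormedAddCommGroup V]
    [InnerProductSpace ℂ V] [FiniteDimensional ℂ V] {ρ : G →* Module.End ℂ V}
    (hiso : ∀ g v, ‖ρ g v‖ = ‖v‖) {z : G} {ω : ℂ}
    (heig : ∀ (μ : ℂ) (v : V), v ≠ 0 → ρ z v = μ • v → μ = 1 ∨ μ = ω) :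
    Near ρ z ((1 + ω) / 2) (‖ω - 1‖ / 2) := by
  have hK : ∀ x ∈ Subgroup.zpowers z, ∀ y ∈ Subgroup.zpowers z, ρ x * ρ y = ρ y * ρ x := by
    rintro _ ⟨a, rfl⟩ _ ⟨b, rfl⟩
    rw [← map_mul, ← map_mul]
    congr 1
    exact (zpow_mul_comm z a b)
  have := near_of_weights hiso (Subgroup.zpowers z) hK ⟨z, Subgroup.mem_zpowers z⟩
    ((1 + ω) / 2) (r := ‖ω - 1‖ / 2) (by positivity) ?_
  · exact this
  · intro l
    obtain ⟨v, hv, hv0⟩ := (Submodule.ne_bot_iff _).mp l.2
    have h1 := mem_Wt.mp hv ⟨z, Subgroup.mem_zpowers z⟩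
    rcases heig _ v hv0 h1 with h2 | h2
    · rw [h2]
      have e : (1 : ℂ) - (1 + ω) / 2 = -((ω - 1) / 2) := by ring
      rw [e, norm_neg, norm_div]
      simp
    · rw [h2]
      have e : ω - (1 + ω) / 2 = (ω - 1) / 2 := by ring
      rw [e, norm_div]
      simp

/-- An element with eigenvalues `1, ω`, with `ω` close to `1`, lies in the Fitting subgroup. -/
theorem mem_fitting_of_two_eigen {G : Type*} [Group G] [Finite G] (m : ℕ)
    (ρ : Representation ℂ G (Fin m → ℂ)) (hfaith : ∀ g, (∀ v, ρ g v = v) → g = 1) {z : G} {ω : ℂ}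
    (hω : ‖ω - 1‖ < 1)
    (heig : ∀ (μ : ℂ) (v : Fin m → ℂ), v ≠ 0 → ρ z v = μ • v → μ = 1 ∨ μ = ω) :
    z ∈ Cfsg.fittingSubgroup G := by
  letI : Fintype G := Fintype.ofFinite G
  let ρ' : G →* Module.End ℂ (AvgSpace m) := ρ
  letI core := avgCore ρ'
  letI inst1 : NormedAddCommGroup (AvgSpace m) := core.toNormedAddCommGroup
  letI inst2 : InnerProductSpace ℂ (AvgSpace m) := InnerProductSpace.ofCore core.toCore
  have hiso : ∀ g v, ‖ρ' g v‖ = ‖v‖ := by
    intro g v
    change Real.sqrt (RCLike.re (avgInner ρ' (ρ' g v) (ρ' g v))) =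
      Real.sqrt (RCLike.re (avgInner ρ' v v))
    rw [avgInner_invariant]
  have hn := near_of_two_eigen (ρ := ρ') hiso (z := z) (ω := ω) heig
  have he : IsLeftEngel z :=
    isLeftEngel_of_near hiso hfaith (by positivity) (by linarith) hn
  exact mem_fitting_of_isLeftEngel _ G rfl z he

/-- The eigenvalue condition from the spectrum of a diagonalisation. -/
theorem two_eigen_of_basis {V : Type*} [AddCommGroup V] [Module ℂ V] {ι : Type*}
    (b : Module.Basis ι ℂ V) (T : Module.End ℂ V) (ζ : ι → ℂ) (hT : ∀ i, T (b i) = ζ i • b i)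
    {ω : ℂ} (hζ : ∀ i, ζ i = 1 ∨ ζ i = ω) (μ : ℂ) (v : V) (hv : v ≠ 0) (hμ : T v = μ • v) :
    μ = 1 ∨ μ = ω := by
  have hop : (T - 1) * (T - algebraMap ℂ _ ω) = 0 := by
    refine b.ext fun i => ?_
    rcases hζ i with h | h
    · simp [hT, h]
    · simp [hT, h]
  have h1 := congrArg (fun f : Module.End ℂ V => f v) hop
  have h2 : ((μ - ω) * (μ - 1)) • v = 0 := by
    have e : ((T - 1) * (T - algebraMap ℂ _ ω)) v = ((μ - ω) * (μ - 1)) • v := by
      have e1 : (T - algebraMap ℂ _ ω) v = (μ - ω) • v := by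
        simp [hμ, sub_smul]
      have e2 : (T - 1) ((μ - ω) • v) = ((μ - ω) * (μ - 1)) • v := by
        rw [map_smul, LinearMap.sub_apply, hμ, Module.End.one_apply, mul_smul]
        congr 1
        rw [sub_smul (r := μ) (s := (1 : ℂ)), one_smul]
      rw [Module.End.mul_apply, e1, e2]
    rw [← e]
    exact h1
  rcases smul_eq_zero.mp h2 with h3 | h3
  · rcases mul_eq_zero.mp h3 with h4 | h4
    · exact Or.inr (sub_eq_zero.mp h4)
    · exact Or.inl (sub_eq_zero.mp h4)
  · exact absurd h3 hv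

/-- A geometric sum of a nontrivial root of unity vanishes. -/
theorem geom_root_eq_zero {x : ℂ} {p : ℕ} (hx : x ^ p = 1) (hne : x ≠ 1) :
    ∑ k ∈ Finset.range p, x ^ k = 0 := by
  have h1 := geom_sum_mul x p
  rw [hx, sub_self] at h1
  exact (mul_eq_zero.mp h1).resolve_right (sub_ne_zero.mpr hne)

/-- The eigenvalues from a formula for a character on the powers of an element. -/
theorem eigen_of_char {G : Type*} [Group G] {V : Type*} [AddCommGroup V] [Module ℂ V]
    [FiniteDimensional ℂ V] (ρ : Representation ℂ G V) {z : G} {p : ℕ} (hp : 0 < p) (hz : z ^ p = 1)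
    {ω : ℂ} (hω : ω ^ p = 1) {a b : ℂ}
    (h : ∀ k : ℕ, ρ.character (z ^ k) = a * ω ^ k + b) (μ : ℂ) (v : V) (hv : v ≠ 0)
    (hμ : ρ z v = μ • v) : μ = 1 ∨ μ = ω := by
  classical
  have hfin : IsOfFinOrder z := isOfFinOrder_iff_pow_eq_one.mpr ⟨p, hp, hz⟩
  obtain ⟨B, ζ, hζ, hB⟩ := Cfsg.Agent.Lib.Char.exists_eigenbasis_rep ρ z hfin
  have hB1 : ∀ i, ρ z (B i) = ζ i • B i := by
    intro i
    have := hB i 1
    simpa using this
  have hζp : ∀ i, ζ i ^ p = 1 := by
    intro i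
    have hd : orderOf z ∣ p := orderOf_dvd_of_pow_eq_one hz
    obtain ⟨c, hc⟩ := hd
    rw [hc, pow_mul, hζ i, one_pow]
  have hchar : ∀ k : ℕ, ρ.character (z ^ k) = ∑ i, ζ i ^ k := by
    intro k
    have := Cfsg.Agent.Lib.Char.trace_of_diagonal B (ρ (z ^ k)) (fun i => ζ i ^ k) (fun i => by
      have := hB i k
      simpa using this)
    exact this
  refine two_eigen_of_basis B (ρ z) ζ hB1 (fun i => ?_) μ v hv hμ
  by_contra hcon
  push Not at hcon
  obtain ⟨h1, h2⟩ := hcon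
  set m : ℂ := ζ i with hm
  have hm0 : m ≠ 0 := by
    intro h0
    have := hζp i
    rw [← hm, h0, zero_pow hp.ne'] at this
    exact zero_ne_one this
  have hminv : (m⁻¹) ^ p = 1 := by rw [inv_pow, hζp i, inv_one]
  have hS1 : ∑ k ∈ Finset.range p, m⁻¹ ^ k * ρ.character (z ^ k) = 0 := by
    have e : ∀ k ∈ Finset.range p, m⁻¹ ^ k * ρ.character (z ^ k) =
        a * (ω * m⁻¹) ^ k + b * m⁻¹ ^ k := by
      intro k _
      rw [h k, mul_pow]
      ring
    rw [Finset.sum_congr rfl e, Finset.sum_add_distrib, ← Finset.mul_sum, ← Finset.mul_sum]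
    have e1 : ∑ k ∈ Finset.range p, (ω * m⁻¹) ^ k = 0 := by
      apply geom_root_eq_zero
      · rw [mul_pow, hω, hminv, one_mul]
      · intro h3
        apply h2
        field_simp at h3
        exact h3.symm
    have e2 : ∑ k ∈ Finset.range p, m⁻¹ ^ k = 0 := by
      apply geom_root_eq_zero hminv
      intro h3
      apply h1
      rw [← inv_inv m, h3, inv_one]
    rw [e1, e2]
    simp
  have hS2 : ∑ k ∈ Finset.range p, m⁻¹ ^ k * ρ.character (z ^ k) =
      ∑ j, ∑ k ∈ Finset.range p, (ζ j * m⁻¹) ^ k := by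
    rw [Finset.sum_comm]
    refine Finset.sum_congr rfl fun k _ => ?_
    rw [hchar k, Finset.mul_sum]
    refine Finset.sum_congr rfl fun j _ => ?_
    rw [mul_pow, mul_comm]
  have hS3 : ∀ j, ∑ k ∈ Finset.range p, (ζ j * m⁻¹) ^ k = if ζ j = m then (p : ℂ) else 0 := by
    intro j
    split_ifs with hj
    · rw [hj, mul_inv_cancel₀ hm0]
      simp
    · apply geom_root_eq_zero
      · rw [mul_pow, hζp j, hminv, one_mul]
      · intro h3
        apply hj
        field_simp at h3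
        exact h3
  rw [hS2, Finset.sum_congr rfl (fun j _ => hS3 j)] at hS1
  have hS4 : ((Finset.univ.filter fun j => ζ j = m).card : ℂ) * p = 0 := by
    rw [← hS1, Finset.sum_ite, Finset.sum_const, Finset.sum_const_zero, add_zero, nsmul_eq_mul]
  have hpne : (p : ℂ) ≠ 0 := by exact_mod_cast hp.ne'
  have hcard : ((Finset.univ.filter fun j => ζ j = m).card : ℂ) = 0 :=
    (mul_eq_zero.mp hS4).resolve_right hpne
  have hcard' : (Finset.univ.filter fun j => ζ j = m).card = 0 := by exact_mod_cast hcard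
  rw [Finset.card_eq_zero] at hcard'
  have : i ∈ (Finset.univ.filter fun j => ζ j = m) := by simp [hm]
  rw [hcard'] at this
  simp at this

/-- The standard primitive root of unity. -/
noncomputable def rootω (p : ℕ) : ℂ := Complex.exp (2 * Real.pi * Complex.I / p)

theorem rootω_pow (p : ℕ) (hp : p ≠ 0) : rootω p ^ p = 1 :=
  (Complex.isPrimitiveRoot_exp p hp).pow_eq_one

theorem rootω_primitive (p : ℕ) (hp : p ≠ 0) : IsPrimitiveRoot (rootω p) p :=
  Complex.isPrimitiveRoot_exp p hp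

/-- The standard root of unity is close to `1`. -/
theorem norm_rootω_sub_one_lt {p : ℕ} (h7 : 7 ≤ p) : ‖rootω p - 1‖ < 1 := by
  have hp0 : (0 : ℝ) < p := by positivity
  set θ : ℝ := 2 * Real.pi / p with hθ
  have he : rootω p = Complex.exp ((θ : ℂ) * Complex.I) := by
    unfold rootω
    congr 1
    rw [hθ]
    push_cast
    ring
  have hpi := Real.pi_pos
  have hp7 : (7 : ℝ) ≤ p := by exact_mod_cast h7
  have hθ0 : 0 ≤ θ := by positivity
  have hθ1 : θ < Real.pi / 3 := by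
    rw [hθ, div_lt_iff₀ hp0]
    nlinarith
  have hcos : 1 / 2 < Real.cos θ := by
    rw [← Real.cos_pi_div_three]
    apply Real.cos_lt_cos_of_nonneg_of_le_pi hθ0
    · linarith
    · exact hθ1
  have hsq : ‖rootω p - 1‖ ^ 2 < 1 ^ 2 := by
    rw [he, ← Complex.normSq_eq_norm_sq, Complex.normSq_apply]
    simp only [Complex.sub_re, Complex.sub_im, Complex.exp_ofReal_mul_I_re,
      Complex.exp_ofReal_mul_I_im, Complex.one_re, Complex.one_im]
    have hc := Real.sin_sq_add_cos_sq θ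
    nlinarith
  exact lt_of_pow_lt_pow_left₀ 2 (by norm_num) hsq

end Cfsg.Agent.Lib.DegTwoP
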