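import Cfsg.Agent.Lib.DegTwoP.Near
import Cfsg.Agent.Lib.Degree.Linear
import Cfsg.Agent.Lib.CharExtra.Central
import Cfsg.Agent.Lib.Char.Complete
import Cfsg.Agent.Lib.Char.Constituent
import Cfsg.Agent.Lib.Core.Basic

/-!
# Faithful characters of degree below `2p` of nonabelian `p`-groups
-/

set_option autoImplicit false

namespace Cfsg.Agent.Lib.DegTwoP

open Cfsg Cfsg.Agent.Lib.Char Cfsg.Agent.Lib.Degree
open scoped commutatorElement

section

variable {P : Type*} [Group P] [Fintype P]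

/-- A class function not constant on a commutator has a nonlinear constituent. -/
theorem exists_nonlinear_constituent {ξ : P → ℂ} (hξ : IsClassFunction P ξ) {c : P}
    (hc : c ∈ commutator P) (hne : ξ c ≠ ξ 1) :
    ∃ φ : IrrCharacter P, classInner ξ (φ : P → ℂ) ≠ 0 ∧ (φ : P → ℂ) 1 ≠ 1 := by
  classical
  by_contra hcon
  push Not at hcon
  apply hne
  have h := classFunction_eq_sum ξ hξ
  have h1 := congrFun h c
  have h2 := congrFun h 1
  simp only [Finset.sum_apply, Pi.smul_apply, smul_eq_mul] at h1 h2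
  rw [h1, h2]
  refine Finset.sum_congr rfl fun φ _ => ?_
  by_cases h0 : classInner ξ (φ : P → ℂ) = 0
  · rw [h0, zero_mul, zero_mul]
  · have h3 := hcon φ h0
    rw [irr_linear_commutator φ h3 hc, h3]

theorem irr_degree_pow {p : ℕ} (hp : p.Prime) (hP : IsPGroup p P) {φ : P → ℂ}
    (hφ : IsIrrCharacter P φ) : ∃ s, charDegree φ = p ^ s := by
  haveI : Fact p.Prime := ⟨hp⟩
  obtain ⟨m, hm⟩ := IsPGroup.iff_card.mp hP
  have h := charDegree_dvd_card hφ
  rw [hm] at h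
  obtain ⟨s, -, hs⟩ := (Nat.dvd_prime_pow hp).mp h
  exact ⟨s, hs⟩

/-- The structure of a faithful character of small degree of a nonabelian `p`-group. -/
theorem pgroup_structure {p : ℕ} (hp : p.Prime) (hP : IsPGroup p P) {ξ : P → ℂ}
    (hξ : IsCharacter P ξ) (hfaith : ∀ g, ξ g = ξ 1 → g = 1) {n : ℕ} (hn : charDegree ξ = n)
    (hn2 : n < 2 * p) (hna : ∃ x y : P, x * y ≠ y * x) :
    p ≤ n ∧ ∃ z : P, z ∈ Subgroup.center P ∧ z ^ p = 1 ∧
      ∀ k : ℕ, ξ (z ^ k) = (p : ℂ) * rootω p ^ k + ((n - p : ℕ) : ℂ) := by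
  classical
  haveI : Fact p.Prime := ⟨hp⟩
  have hp2 := hp.two_le
  have hD : commutator P ≠ ⊥ := by
    obtain ⟨x, y, hxy⟩ := hna
    intro h
    apply hxy
    have h1 : ⁅x, y⁆ ∈ commutator P :=
      Subgroup.commutator_mem_commutator (Subgroup.mem_top _) (Subgroup.mem_top _)
    rw [h, Subgroup.mem_bot, commutatorElement_eq_one_iff_mul_comm] at h1
    exact h1
  haveI : Group.IsNilpotent P := hP.isNilpotent
  have hI := Cfsg.Agent.Lib.Core.normal_inf_center_ne_bot (commutator P) hD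
  obtain ⟨z₁, hz₁D, hz₁Z, hz₁p, hz₁1⟩ :
      ∃ z₁ : P, z₁ ∈ commutator P ∧ z₁ ∈ Subgroup.center P ∧ z₁ ^ p = 1 ∧ z₁ ≠ 1 := by
    set D := commutator P ⊓ Subgroup.center P with hDdef
    have hDp : IsPGroup p D := hP.to_subgroup D
    haveI hnt : Nontrivial D := (Subgroup.nontrivial_iff_ne_bot D).mpr hI
    obtain ⟨k, hk⟩ := IsPGroup.iff_card.mp hDp
    have hk0 : k ≠ 0 := by
      rintro rfl
      rw [pow_zero] at hk
      have := Finite.one_lt_card (α := D)
      omega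
    have hdvd : p ∣ Nat.card D := by
      rw [hk]
      exact dvd_pow_self p hk0
    obtain ⟨x, hx⟩ := exists_prime_orderOf_dvd_card' p hdvd
    refine ⟨x, x.2.1, x.2.2, ?_, ?_⟩
    · have := pow_orderOf_eq_one x
      rw [hx] at this
      exact_mod_cast congrArg Subtype.val this
    · intro h1
      have h2 : x = 1 := Subtype.ext h1
      rw [h2, orderOf_one] at hx
      exact hp.one_lt.ne hx
  have hneq : ξ z₁ ≠ ξ 1 := fun h => hz₁1 (hfaith _ h)
  obtain ⟨φ, hφ0, hφ1⟩ := exists_nonlinear_constituent (IsCharacter.isClassFunction hξ) hz₁D hneq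
  obtain ⟨s, hs⟩ := irr_degree_pow hp hP φ.2
  have hdle := charDegree_le_of_constituent hξ φ.2 hφ0
  have hφdeg : (φ : P → ℂ) 1 = (charDegree (φ : P → ℂ) : ℂ) :=
    map_one_eq_charDegree (IsIrrCharacter.isCharacter φ.2)
  have hs1 : s ≠ 0 := by
    rintro rfl
    apply hφ1
    rw [hφdeg, hs]
    simp
  have hs2 : s = 1 := by
    by_contra hs2
    have h3 : 2 ≤ s := by omega
    have h4 : p ^ 2 ≤ p ^ s := Nat.pow_le_pow_right hp.pos h3
    have h5 : charDegree (φ : P → ℂ) ≤ n := by rwa [hn] at hdle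
    rw [hs] at h5
    nlinarith
  subst hs2
  rw [pow_one] at hs
  have hpn : p ≤ n := by rw [← hn, ← hs]; exact hdle
  refine ⟨hpn, ?_⟩
  -- the remainder
  have hL := isCharacter_sub_of_constituent hξ φ.2 hφ0
  set lam : P → ℂ := ξ - (φ : P → ℂ) with hlam
  have hLdeg : charDegree lam = n - p := by
    have h2 := charDegree_add hL (IsIrrCharacter.isCharacter φ.2)
    rw [hlam, sub_add_cancel, hn, hs] at h2
    rw [hlam]
    omega
  have hLcom : ∀ c ∈ commutator P, lam c = lam 1 := by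
    intro c hc
    by_contra hne
    obtain ⟨ψ, hψ0, hψ1⟩ := exists_nonlinear_constituent (IsCharacter.isClassFunction hL) hc hne
    obtain ⟨u, hu⟩ := irr_degree_pow hp hP ψ.2
    have hle := charDegree_le_of_constituent hL ψ.2 hψ0
    rw [hLdeg] at hle
    have hψdeg : (ψ : P → ℂ) 1 = (charDegree (ψ : P → ℂ) : ℂ) :=
      map_one_eq_charDegree (IsIrrCharacter.isCharacter ψ.2)
    have hu0 : u ≠ 0 := by
      rintro rfl
      apply hψ1
      rw [hψdeg, hu]
      simp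
    have h3 : p ≤ p ^ u := by
      calc p = p ^ 1 := (pow_one p).symm
        _ ≤ p ^ u := Nat.pow_le_pow_right hp.pos (Nat.one_le_iff_ne_zero.mpr hu0)
    rw [hu] at hle
    omega
  have hL1 : lam 1 = ((n - p : ℕ) : ℂ) := by
    rw [map_one_eq_charDegree hL, hLdeg]
  obtain ⟨l, hl⟩ := Cfsg.Agent.Lib.CharExtra.exists_hom_of_central φ (Subgroup.center P) le_rfl
  have hφ1' : (φ : P → ℂ) 1 = (p : ℂ) := by rw [hφdeg, hs]
  have hpne : (p : ℂ) ≠ 0 := by exact_mod_cast hp.ne_zero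
  set z₁' : Subgroup.center P := ⟨z₁, hz₁Z⟩ with hz₁'
  set ε : ℂ := (l z₁' : ℂ) with hε
  have hφpow : ∀ k : ℕ, (φ : P → ℂ) (z₁ ^ k) = (p : ℂ) * ε ^ k := by
    intro k
    have h1 := hl (z₁' ^ k)
    rw [hφ1', map_pow] at h1
    have h2 : ((z₁' ^ k : Subgroup.center P) : P) = z₁ ^ k := rfl
    rw [h2] at h1
    have h3 : ((l z₁' ^ k : ℂˣ) : ℂ) = ε ^ k := by rw [Units.val_pow_eq_pow_val]
    rw [h3] at h1
    rw [h1]
    field_simp
  have hεp : ε ^ p = 1 := by
    have h1 := hφpow p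
    rw [hz₁p, hφ1'] at h1
    have h2 : (p : ℂ) * ε ^ p = (p : ℂ) * 1 := by rw [← h1, mul_one]
    exact mul_left_cancel₀ hpne h2
  have hε1 : ε ≠ 1 := by
    intro h1
    apply hneq
    have e1 : ξ z₁ = (φ : P → ℂ) z₁ + lam z₁ := by simp [hlam]
    have e2 : ξ 1 = (φ : P → ℂ) 1 + lam 1 := by simp [hlam]
    rw [e1, e2, hLcom z₁ hz₁D]
    congr 1
    have := hφpow 1
    rw [pow_one, pow_one, h1, mul_one] at this
    rw [this, hφ1']
  have hεprim : IsPrimitiveRoot ε p := by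
    have hord : orderOf ε = p := orderOf_eq_prime hεp hε1
    rw [← hord]
    exact IsPrimitiveRoot.orderOf ε
  obtain ⟨j, -, hj⟩ := hεprim.eq_pow_of_pow_eq_one (rootω_pow p hp.ne_zero)
  refine ⟨z₁ ^ j, Subgroup.pow_mem _ hz₁Z j, ?_, ?_⟩
  · rw [← pow_mul, mul_comm, pow_mul, hz₁p, one_pow]
  · intro k
    have e1 : ξ ((z₁ ^ j) ^ k) = (φ : P → ℂ) ((z₁ ^ j) ^ k) + lam ((z₁ ^ j) ^ k) := by simp [hlam]
    rw [e1, hLcom _ (Subgroup.pow_mem _ (Subgroup.pow_mem _ hz₁D j) k), hL1, ← pow_mul, hφpow,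
      pow_mul, hj]

end

end Cfsg.Agent.Lib.DegTwoP
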